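import Cfsg.Agent.Lib.ToddCox.Fi22_14080.TP0
import Cfsg.Agent.Lib.ToddCox.Fi22_14080.TP1
set_option autoImplicit false
set_option maxRecDepth 100000
namespace Cfsg.Agent.Lib.ToddCox.Fi22_14080
theorem allPts (i : ℕ) (hi : i < 14080) : chkAll i = true := by
  have hk : i / 1024 < 14 := by omega
  have key : ∀ j, j < 14 → allBits chkAll 10 (j * 2 ^ 10) = true := by
    intro j hj
    interval_cases j
    · exact a0
    · exact a1
    · exact a2
    · exact a3
    · exact a4
    · exact a5
    · exact a6
    · exact a7
    · exact a8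
    · exact a9
    · exact a10
    · exact a11
    · exact a12
    · exact a13
  
  exact allBits_spec (key _ hk) i (Nat.div_mul_le_self i (2 ^ 10)) (by
    have := Nat.div_add_mod i (2 ^ 10)
    have h3 := Nat.mod_lt i (show 2 ^ 10 > 0 by positivity)
    rw [mul_comm] at this
    omega)
end Cfsg.Agent.Lib.ToddCox.Fi22_14080
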