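import Cfsg.Agent.Lib.ToddCox.Fi22_14080.P0
set_option autoImplicit false
set_option maxRecDepth 100000
namespace Cfsg.Agent.Lib.ToddCox.Fi22_14080
theorem covered : Covered Eo inv W isH 36958 128765 := (Covered.trans (Covered.trans (Covered.trans (Covered.trans (Covered.trans c0 c1) (Covered.trans c2 (Covered.trans c3 c4))) (Covered.trans (Covered.trans c5 (Covered.trans c6 c7)) (Covered.trans c8 (Covered.trans c9 c10)))) (Covered.trans (Covered.trans (Covered.trans c11 (Covered.trans c12 c13)) (Covered.trans c14 (Covered.trans c15 c16))) (Covered.trans (Covered.trans c17 (Covered.trans c18 c19)) (Covered.trans c20 (Covered.trans c21 c22))))) (Covered.trans (Covered.trans (Covered.trans (Covered.trans c23 c24) (Covered.trans c25 (Covered.trans c26 c27))) (Covered.trans (Covered.trans c28 (Covered.trans c29 c30)) (Covered.trans c31 (Covered.trans c32 c33)))) (Covered.trans (Covered.trans (Covered.trans c34 (Covered.trans c35 c36)) (Covered.trans c37 (Covered.trans c38 c39))) (Covered.trans (Covered.trans c40 (Covered.trans c41 c42)) (Covered.trans c43 (Covered.trans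 c44 c45))))))
theorem links : LinksOK Eo cF (2 * nEv) N ys 0 14080 := (LinksOK.trans (LinksOK.trans (LinksOK.trans k0 (LinksOK.trans k1 k2)) (LinksOK.trans (LinksOK.trans k3 k4) (LinksOK.trans k5 k6))) (LinksOK.trans (LinksOK.trans k7 (LinksOK.trans k8 k9)) (LinksOK.trans (LinksOK.trans k10 k11) (LinksOK.trans k12 k13))))
theorem defs : ∀ c, c < nDef → chkDef Eo inv c = true := defs_of_bits 36958 13 5 (by norm_num) (by
  intro j hj
  interval_cases j
  · exact d0
  · exact d1
  · exact d2
  · exact d3
  · exact d4
  )
theorem words : ∀ j, j < nW → wordsOK W (relR Rb inv) inv sp j = true := allBelow_spec (by norm_num [nW]) wordsGood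
end Cfsg.Agent.Lib.ToddCox.Fi22_14080
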